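/-
Injectivity of a function on an initial segment of the numbers, by a mask of the values seen.
-/
import Cfsg.Agent.Lib.TC.Lower
import Cfsg.Agent.Lib.TC.Fast.Defs

set_option autoImplicit false

namespace Cfsg.Agent.Lib.TC

open Cfsg.Agent.Lib.TC.Fast

/-- The values of `g` below `K` are new and distinct. -/
noncomputable def uniqF (g : ℕ → ℕ) : ℕ → ℕ → Bool :=
  Nat.rec (motive := fun _ => ℕ → Bool) (fun _ => true)
    (fun k ih m => fb (g k) (fun x => Bool.rec
      (Nat.rec (motive := fun _ => Bool) (ih 0) (fun j _ => ih (Nat.succ j)) (Nat.lor m (Nat.shiftLeft (nat_lit 1) x)))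
      false (bitOf m x)))

theorem uniq_rec_force (x : ℕ) (k : ℕ → Bool) :
    (Nat.rec (motive := fun _ => Bool) (k 0) (fun n _ => k (Nat.succ n)) x : Bool) = k x := by
  cases x <;> rfl

theorem uniq_fb (x : ℕ) (k : ℕ → Bool) : fb x k = k x := by
  cases x <;> rfl

theorem uniqF_spec (g : ℕ → ℕ) (K : ℕ) : ∀ m, uniqF g K m = true →
    (∀ k, k < K → m.testBit (g k) = false) ∧ ∀ k k', k < K → k' < K → g k = g k' → k = k' := by
  induction K with
  | zero =>
    intro m _
    exact ⟨fun k hk => absurd hk (by omega), fun k _ hk => absurd hk (by omega)⟩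
  | succ K ih =>
    intro m h
    have h1 : fb (g K) (fun x => Bool.rec
      (Nat.rec (motive := fun _ => Bool) (uniqF g K 0) (fun j _ => uniqF g K (Nat.succ j)) (Nat.lor m (Nat.shiftLeft 1 x)))
      false (bitOf m x)) = true := h
    rw [uniq_fb] at h1
    cases h2 : bitOf m (g K) with
    | true => rw [h2] at h1; simp at h1
    | false =>
      rw [h2] at h1
      have h3 : uniqF g K (Nat.lor m (Nat.shiftLeft 1 (g K))) = true := by
        have h4 := uniq_rec_force (Nat.lor m (Nat.shiftLeft 1 (g K))) (uniqF g K)
        rw [← h4]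
        exact h1
      obtain ⟨h5, h6⟩ := ih _ h3
      have e1 : ∀ y, (Nat.lor m (Nat.shiftLeft 1 (g K))).testBit y = (m.testBit y || (1 <<< (g K)).testBit y) := by
        intro y
        have : Nat.lor m (Nat.shiftLeft 1 (g K)) = m ||| (1 <<< (g K)) := rfl
        rw [this, Nat.testBit_or]
      have h7 : m.testBit (g K) = false := by
        have := (bitOf_iff m (g K))
        cases h8 : m.testBit (g K) with
        | false => rfl
        | true =>
          have := this.2 h8
          rw [h2] at this
          exact absurd this (by simp)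
      have h8 : ∀ k, k < K → m.testBit (g k) = false ∧ g k ≠ g K := by
        intro k hk
        have h9 := h5 k hk
        rw [e1, Bool.or_eq_false_iff] at h9
        refine ⟨h9.1, ?_⟩
        intro h10
        have h11 := h9.2
        rw [h10] at h11
        have h12 := (testBit_shift_one (g K) (g K)).2 rfl
        rw [h12] at h11
        exact absurd h11 (by simp)
      refine ⟨?_, ?_⟩
      · intro k hk
        rcases Nat.lt_succ_iff_lt_or_eq.1 hk with h9 | rfl
        · exact (h8 k h9).1
        · exact h7
      · intro k k' hk hk' h9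
        rcases Nat.lt_succ_iff_lt_or_eq.1 hk with h10 | rfl
        · rcases Nat.lt_succ_iff_lt_or_eq.1 hk' with h11 | rfl
          · exact h6 k k' h10 h11 h9
          · exact absurd h9 (h8 k h10).2
        · rcases Nat.lt_succ_iff_lt_or_eq.1 hk' with h11 | rfl
          · exact absurd h9.symm (h8 k' h11).2
          · rfl

end Cfsg.Agent.Lib.TC
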