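/-
Homomorphisms from a subgroup to a group acting faithfully on a finite subset of a set, from an intertwining map.
-/
import Cfsg.Agent.Lib.TC.Coset

set_option autoImplicit false

namespace Cfsg.Agent.Lib.TC

variable {G K X Y ι : Type*} [Group G] [Group K]

/-- A homomorphism from a subgroup generated by elements `x j`, acting on a set, to a group acting faithfully on a finite
invariant subset of another set, when the generators act like elements of the group. -/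
theorem exists_hom_of_intertwine_on (α : G →* Equiv.Perm X) (β : K →* Equiv.Perm Y) (Y0 : Set Y) (hfin : Y0.Finite)
    (hβ : ∀ k, (∀ y ∈ Y0, β k y = y) → k = 1)
    (e : Y → X) (he : Set.InjOn e Y0) (J : Set ι) (x : ι → G) (z : ι → K)
    (hY : ∀ j ∈ J, ∀ y ∈ Y0, β (z j) y ∈ Y0)
    (hf : ∀ j ∈ J, ∀ y ∈ Y0, α (x j) (e y) = e (β (z j) y)) :
    ∃ ψ : Subgroup.closure (x '' J) →* K,
      (∀ j (hj : j ∈ J), ψ ⟨x j, Subgroup.subset_closure ⟨j, hj, rfl⟩⟩ = z j) ∧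
      ∀ g : Subgroup.closure (x '' J), ∀ y ∈ Y0, β (ψ g) y ∈ Y0 ∧ α g.1 (e y) = e (β (ψ g) y) := by
  classical
  have hfin' : Finite Y0 := hfin
  have hex : ∀ g ∈ Subgroup.closure (x '' J), ∃ k : K, ∀ y ∈ Y0, β k y ∈ Y0 ∧ α g (e y) = e (β k y) := by
    intro g hg
    induction hg using Subgroup.closure_induction with
    | mem g hg =>
      obtain ⟨j, hj, rfl⟩ := hg
      exact ⟨z j, fun y hy => ⟨hY j hj y hy, hf j hj y hy⟩⟩
    | one => exact ⟨1, fun y hy => by simpa using hy⟩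
    | mul a b _ _ ha hb =>
      obtain ⟨k₁, h₁⟩ := ha
      obtain ⟨k₂, h₂⟩ := hb
      refine ⟨k₁ * k₂, fun y hy => ?_⟩
      have h3 := h₂ y hy
      have h4 := h₁ _ h3.1
      refine ⟨by simpa using h4.1, ?_⟩
      simp only [map_mul, Equiv.Perm.mul_apply]
      rw [h3.2, h4.2]
    | inv a _ ha =>
      obtain ⟨k, h⟩ := ha
      have hm : Set.MapsTo (β k) Y0 Y0 := fun y hy => (h y hy).1
      have hb : Set.BijOn (β k) Y0 Y0 := (hfin.injOn_iff_bijOn_of_mapsTo hm).1 (β k).injective.injOn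
      have hm' : Set.MapsTo ((β k)⁻¹ : Equiv.Perm Y) Y0 Y0 := hb.perm_inv.mapsTo
      refine ⟨k⁻¹, fun y hy => ?_⟩
      have h1 : (β k)⁻¹ y ∈ Y0 := hm' hy
      rw [map_inv, map_inv]
      refine ⟨h1, ?_⟩
      rw [Equiv.Perm.inv_eq_iff_eq, (h _ h1).2]
      simp
  choose! F hF using hex
  have huniq : ∀ g, ∀ k₁ k₂ : K, (∀ y ∈ Y0, β k₁ y ∈ Y0 ∧ α g (e y) = e (β k₁ y)) →
      (∀ y ∈ Y0, β k₂ y ∈ Y0 ∧ α g (e y) = e (β k₂ y)) → k₁ = k₂ := by
    intro g k₁ k₂ h₁ h₂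
    have h3 : k₁⁻¹ * k₂ = 1 := by
      apply hβ
      intro y hy
      have h4 : β k₂ y = β k₁ y :=
        he (h₂ y hy).1 (h₁ y hy).1 (by rw [← (h₂ y hy).2, ← (h₁ y hy).2])
      rw [map_mul, Equiv.Perm.mul_apply, h4, map_inv]
      simp
    exact (inv_mul_eq_one.1 h3)
  refine ⟨{ toFun := fun g => F g.1, map_one' := ?_, map_mul' := ?_ }, ?_, ?_⟩
  · apply huniq 1 _ _ (hF 1 (Subgroup.one_mem _))
    intro y hy
    simpa using hy
  · intro a b
    apply huniq (a.1 * b.1) _ _ (hF _ (Subgroup.mul_mem _ a.2 b.2))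
    intro y hy
    have h3 := hF _ b.2 y hy
    have h4 := hF _ a.2 _ h3.1
    refine ⟨by simpa using h4.1, ?_⟩
    simp only [map_mul, Equiv.Perm.mul_apply]
    rw [h3.2, h4.2]
  · intro j hj
    exact huniq (x j) _ _ (hF _ (Subgroup.subset_closure ⟨j, hj, rfl⟩)) (fun y hy => ⟨hY j hj y hy, hf j hj y hy⟩)
  · intro g y hy
    exact hF g.1 g.2 y hy

end Cfsg.Agent.Lib.TC
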