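/-
The relators of a presentation on a subset of the letters define a presentation of their own. When a chain of coset
enumerations bounds the order of the presented group by the order of the subgroup generated by the letters, the subgroup
is presented by those relators, and homomorphisms from it can be defined on the letters.
-/
import Cfsg.Agent.Lib.TC.Chain

set_option autoImplicit false

namespace Cfsg.Agent.Lib.TC

namespace Sys

variable {α : Type*} [DecidableEq α] (S : Sys α)

/-- The relators on the letters in `A`, and relators killing the other generators. -/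
def restrictRels (A : List ℕ) : Set (FreeGroup α) :=
  {r | r ∈ S.rels ∧ ∀ p ∈ r.toWord, S.code p.1 ∈ A} ∪ {r | ∃ x, S.code x ∉ A ∧ r = FreeGroup.of x} ∪
    {r | ∃ x, S.code x ∉ A ∧ r = FreeGroup.of x * FreeGroup.of x}

theorem toWord_sq (x : α) : (FreeGroup.of x * FreeGroup.of x : FreeGroup α).toWord = [(x, true), (x, true)] := by
  have h : (FreeGroup.of x * FreeGroup.of x : FreeGroup α) = FreeGroup.of x ^ 2 := by rw [pow_two]
  rw [h, FreeGroup.toWord_of_pow]
  rfl

/-- The presentation on the letters in `A`. -/
def restrict (A : List ℕ) : Sys α where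
  rels := S.restrictRels A
  code := S.code
  inv := S.inv
  ng := S.ng
  dec := S.dec
  neg := S.neg
  hcode := S.hcode
  hdec := S.hdec
  hinvc := by
    intro x
    obtain ⟨h1, h2, h3⟩ := S.hinvc x
    refine ⟨h1, h2, ?_⟩
    rcases h3 with h3 | ⟨h3, h4⟩
    · exact Or.inl h3
    · refine Or.inr ⟨h3, ?_⟩
      by_cases hx : S.code x ∈ A
      · refine Or.inl (Or.inl ⟨h4, ?_⟩)
        rw [toWord_sq]
        intro p hp
        simp only [List.mem_cons, List.not_mem_nil, or_false] at hp
        rcases hp with rfl | rfl <;> exact hx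
      · exact Or.inr ⟨x, hx, rfl⟩
  hinv := S.hinv

theorem lift_congr_word {β : Type*} [Group β] (f g : α → β) (r : FreeGroup α)
    (h : ∀ p ∈ r.toWord, f p.1 = g p.1) : FreeGroup.lift f r = FreeGroup.lift g r := by
  conv_lhs => rw [← FreeGroup.mk_toWord (x := r)]
  conv_rhs => rw [← FreeGroup.mk_toWord (x := r)]
  rw [FreeGroup.lift_mk, FreeGroup.lift_mk]
  generalize r.toWord = L at h
  induction L with
  | nil => rfl
  | cons p L ih =>
    obtain ⟨x, b⟩ := p
    have h1 : f x = g x := h (x, b) (by simp)
    have h2 := ih (fun q hq => h q (by simp [hq]))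
    simp only [List.map_cons, List.prod_cons]
    rw [h1, h2]

/-- The values of the generators in the group. -/
noncomputable def resVal (A : List ℕ) (x : α) : PresentedGroup S.rels :=
  if S.code x ∈ A then PresentedGroup.of x else 1

theorem resVal_rel (A : List ℕ) : ∀ r ∈ (S.restrict A).rels, FreeGroup.lift (S.resVal A) r = 1 := by
  rintro r ((⟨hr, hA⟩ | ⟨x, hx, rfl⟩) | ⟨x, hx, rfl⟩)
  · have h1 : FreeGroup.lift (S.resVal A) r = FreeGroup.lift (PresentedGroup.of : α → PresentedGroup S.rels) r := by
      apply lift_congr_word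
      intro p hp
      simp [resVal, hA p hp]
    rw [h1]
    have h2 : (FreeGroup.lift (PresentedGroup.of : α → PresentedGroup S.rels)) = PresentedGroup.mk S.rels := by
      ext x
      simp [PresentedGroup.of]
    rw [h2]
    exact PresentedGroup.one_of_mem hr
  · simp [resVal, hx]
  · simp [resVal, hx]

/-- The map of the group on the letters to the given group. -/
noncomputable def resHom (A : List ℕ) : PresentedGroup (S.restrict A).rels →* PresentedGroup S.rels :=
  PresentedGroup.toGroup (S.resVal_rel A)

theorem resHom_of (A : List ℕ) (x : α) : S.resHom A (PresentedGroup.of x) = S.resVal A x :=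
  PresentedGroup.toGroup.of _

theorem resHom_v (A : List ℕ) (hA : ∀ g ∈ A, S.inv g ∈ A) {g : ℕ} (hgA : g ∈ A) (hg : g < S.ng) :
    S.resHom A ((S.restrict A).v g) = S.v g := by
  have h0 : ∀ x, S.code x ∈ A → S.resHom A ((S.restrict A).v (S.code x)) = S.v (S.code x) := by
    intro x hx
    have h1 : (S.restrict A).v (S.code x) = PresentedGroup.of x := (S.restrict A).v_code x
    rw [h1, resHom_of, S.v_code]
    simp [resVal, hx]
  rcases (S.hinv g hg).2.2 with h | h
  · rw [h]
    exact h0 _ (h ▸ hgA)
  · have h1 : S.code (S.dec g) ∈ A := by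
      have h2 := hA g hgA
      have h3 := (S.hinv (S.code (S.dec g)) (S.hcode _)).2.1
      rw [h, h3] at h2
      exact h2
    rw [h]
    have h2 : (S.restrict A).v (S.inv (S.code (S.dec g))) = ((S.restrict A).v (S.code (S.dec g)))⁻¹ :=
      (S.restrict A).v_inv_code' _
    rw [h2, map_inv, h0 _ h1, ← S.v_inv_code']

theorem resHom_range (A : List ℕ) (hA : ∀ g ∈ A, S.inv g ∈ A) (hlt : ∀ g ∈ A, g < S.ng) :
    (S.resHom A).range = S.letL A := by
  apply le_antisymm
  · rw [MonoidHom.range_eq_map, ← (S.restrict A).closure_eq_top, MonoidHom.map_closure]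
    apply (Subgroup.closure_le _).2
    rintro _ ⟨_, ⟨x, rfl⟩, rfl⟩
    have h1 : (S.restrict A).v ((S.restrict A).code x) = PresentedGroup.of x := (S.restrict A).v_code x
    show S.resHom A ((S.restrict A).v ((S.restrict A).code x)) ∈ S.letL A
    rw [h1, resHom_of, resVal]
    split_ifs with hx
    · have h2 := S.mem_letL hx
      rwa [S.v_code] at h2
    · exact Subgroup.one_mem _
  · apply S.letL_le_iff
    intro g hg
    exact ⟨_, S.resHom_v A hA hg (hlt g hg)⟩

/-- In the presented group on the letters, the subgroup of the letters is everything. -/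
theorem restrict_letL_top (A : List ℕ) : (S.restrict A).letL A = ⊤ := by
  rw [eq_top_iff, ← (S.restrict A).closure_eq_top]
  apply (Subgroup.closure_le _).2
  rintro _ ⟨x, rfl⟩
  by_cases hx : (S.restrict A).code x ∈ A
  · exact (S.restrict A).mem_letL hx
  · have h1 : (FreeGroup.of x : FreeGroup α) ∈ (S.restrict A).rels := Or.inl (Or.inr ⟨x, hx, rfl⟩)
    have h2 := PresentedGroup.one_of_mem h1
    have h3 : (S.restrict A).v ((S.restrict A).code x) = PresentedGroup.of x := (S.restrict A).v_code x
    show (S.restrict A).v ((S.restrict A).code x) ∈ _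
    rw [h3]
    have h4 : (PresentedGroup.of x : PresentedGroup (S.restrict A).rels) = 1 := h2
    rw [h4]
    exact Subgroup.one_mem _

/-- A relator of a certificate on letters of `A` is a relator of the restricted presentation. -/
theorem restrict_rel (A : List ℕ) (hA : ∀ g ∈ A, S.inv g ∈ A) {w : List ℕ} (hw : ∀ g ∈ w, g ∈ A)
    (h : ∃ r ∈ S.rels, encW S.code S.inv r = w) : ∃ r ∈ (S.restrict A).rels, encW S.code S.inv r = w := by
  obtain ⟨r, hr, rfl⟩ := h
  refine ⟨r, Or.inl (Or.inl ⟨hr, ?_⟩), rfl⟩
  intro p hp
  have h1 : (if p.2 then S.code p.1 else S.inv (S.code p.1)) ∈ encW S.code S.inv r := by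
    simp only [encW, List.mem_map]
    exact ⟨p, hp, rfl⟩
  have h2 := hw _ h1
  split_ifs at h2 with hb
  · exact h2
  · have h3 := hA _ h2
    rwa [(S.hinv _ (S.hcode p.1)).2.1] at h3

/-- The isomorphism. -/
theorem resHom_injective (A : List ℕ) (hA : ∀ g ∈ A, S.inv g ∈ A) (hlt : ∀ g ∈ A, g < S.ng) {b : ℕ}
    (hpos : 0 < Nat.card (PresentedGroup (S.restrict A).rels))
    (hb : Nat.card (PresentedGroup (S.restrict A).rels) ≤ b) (hc : b ≤ Nat.card (S.letL A)) :
    Function.Injective (S.resHom A) := by
  classical
  have hfin : Finite (PresentedGroup (S.restrict A).rels) := Nat.finite_of_card_ne_zero hpos.ne'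
  have h1 := (S.resHom A).ker.card_mul_index
  rw [Subgroup.index_ker, S.resHom_range A hA hlt] at h1
  have h2 : Nat.card (PresentedGroup (S.restrict A).rels) ≤ Nat.card (S.letL A) := hb.trans hc
  have h3 : 0 < Nat.card (S.letL A) := by omega
  have h4 : Nat.card (S.resHom A).ker = 1 := by
    have h5 : Nat.card (S.resHom A).ker * Nat.card (S.letL A) ≤ 1 * Nat.card (S.letL A) := by
      rw [h1, one_mul]
      exact h2
    have h6 := Nat.le_of_mul_le_mul_right h5 h3
    have h7 : 0 < Nat.card (S.resHom A).ker := Nat.card_pos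
    omega
  rw [← MonoidHom.ker_eq_bot_iff]
  exact Subgroup.eq_bot_of_card_eq _ h4

/-- A homomorphism from the subgroup of letters, from values satisfying the relators on the letters. -/
theorem exists_hom_letL (A : List ℕ) (hA : ∀ g ∈ A, S.inv g ∈ A) (hlt : ∀ g ∈ A, g < S.ng) {b : ℕ}
    (hpos : 0 < Nat.card (PresentedGroup (S.restrict A).rels))
    (hb : Nat.card (PresentedGroup (S.restrict A).rels) ≤ b) (hc : b ≤ Nat.card (S.letL A))
    {T : Type*} [Group T] (f : α → T)
    (hf : ∀ r ∈ (S.restrict A).rels, FreeGroup.lift f r = 1) :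
    ∃ ψ : S.letL A →* T, ∀ x (hx : S.code x ∈ A),
      ψ ⟨PresentedGroup.of x, by
        have h2 := S.mem_letL hx
        rwa [S.v_code] at h2⟩ = f x := by
  classical
  have hinj := S.resHom_injective A hA hlt hpos hb hc
  have hr := S.resHom_range A hA hlt
  let e : PresentedGroup (S.restrict A).rels ≃* (S.resHom A).range := MonoidHom.ofInjective hinj
  let e2 : S.letL A ≃* PresentedGroup (S.restrict A).rels :=
    (MulEquiv.subgroupCongr hr.symm).trans e.symm
  refine ⟨(PresentedGroup.toGroup hf).comp e2.toMonoidHom, ?_⟩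
  intro x hx
  have h1 : e2.symm (PresentedGroup.of x) = ⟨PresentedGroup.of x, by
        have h2 := S.mem_letL hx
        rwa [S.v_code] at h2⟩ := by
    apply Subtype.ext
    show ((e (PresentedGroup.of x) : (S.resHom A).range) : PresentedGroup S.rels) = _
    show S.resHom A (PresentedGroup.of x) = _
    rw [resHom_of]
    simp [resVal, hx]
  rw [← h1]
  simp [PresentedGroup.toGroup.of]

end Sys

end Cfsg.Agent.Lib.TC
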